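import Cfsg.Agent.H16.FCStruct
import Cfsg.Agent.H28.AmG
import Cfsg.Agent.H16.AmD
import Cfsg.Agent.H14.AmN

/-! Finite subgroups of division rings (Amitsur): `PA` (the arithmetic input: `-1` is a sum of three squares in
a field containing `√5` and a root of unity of prime order `≠ 2, 5`), `quat`, `key`, and the group part
`surj` (a normal `SL(2,5)` in a finite subgroup of a division ring of characteristic `0` is everything). -/

set_option autoImplicit false
set_option linter.unusedSectionVars false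
set_option linter.unusedSimpArgs false

namespace H22.Am
open H16 Subgroup

universe u

def PA : Prop := ∀ (l : ℕ), l.Prime → l ≠ 2 → l ≠ 5 → ∀ (K : Type u) [Field K] [CharZero K] (η s : K),
  η ^ l = 1 → η ≠ 1 → s ^ 2 = 5 → ∃ a b c d : K, (a ≠ 0 ∨ b ≠ 0 ∨ c ≠ 0 ∨ d ≠ 0) ∧
    a ^ 2 + b ^ 2 + c ^ 2 + d ^ 2 = 0

theorem quat {K A : Type*} [Field K] [CharZero K] [DivisionRing A] [Algebra K A] (i j : A)
    (hi : i * i = -1) (hj : j * j = -1) (hij : j * i = -(i * j)) (a b c d : K)
    (h : a ^ 2 + b ^ 2 + c ^ 2 + d ^ 2 = 0) : a = 0 ∧ b = 0 ∧ c = 0 ∧ d = 0 := by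
  have hi' : ∀ x, i * (i * x) = -x := fun x => by rw [← mul_assoc, hi]; simp
  have hj' : ∀ x, j * (j * x) = -x := fun x => by rw [← mul_assoc, hj]; simp
  have hij' : ∀ x, j * (i * x) = -(i * (j * x)) := fun x => by rw [← mul_assoc, hij]; simp [mul_assoc]
  let q : K → K → K → K → A := fun a b c d => a • (1 : A) + b • i + c • j + d • (i * j)
  have L0 : ∀ a b c d, q a b c d = 0 → a = 0 := fun a b c d e => by
    have : (4 * a) • (1 : A) = (q a b c d - i * q a b c d * i) - j * (q a b c d - i * q a b c d * i) * j := by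
      simp only [q, mul_add, add_mul, mul_sub, sub_mul, smul_mul_assoc, mul_smul_comm, mul_assoc, hi, hj, hij, hi',
        hj', hij', mul_neg, neg_mul, mul_one, one_mul, neg_neg]
      module
    rw [e] at this
    simpa using this
  have L1 : ∀ a b c d, q a b c d = 0 → a = 0 ∧ b = 0 ∧ c = 0 ∧ d = 0 := fun a b c d e => by
    have e1 : q (-b) a d (-c) = q a b c d * i := by
      simp only [q, mul_add, add_mul, smul_mul_assoc, mul_assoc, hi, hj, hij, hi',
        hj', hij', mul_neg, neg_mul, mul_one, one_mul, neg_neg]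
      module
    have e2 : q (-c) (-d) a b = q a b c d * j := by
      simp only [q, mul_add, add_mul, smul_mul_assoc, mul_assoc, hi, hj, hij, hi',
        hj', hij', mul_neg, neg_mul, mul_one, one_mul, neg_neg]
      module
    have e3 : q (-d) c (-b) a = q a b c d * (i * j) := by
      simp only [q, mul_add, add_mul, smul_mul_assoc, mul_assoc, hi, hj, hij, hi',
        hj', hij', mul_neg, neg_mul, mul_one, one_mul, neg_neg]
      module
    rw [e, zero_mul] at e1 e2 e3
    exact ⟨L0 _ _ _ _ e, neg_eq_zero.1 (L0 _ _ _ _ e1), neg_eq_zero.1 (L0 _ _ _ _ e2), neg_eq_zero.1 (L0 _ _ _ _ e3)⟩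
  have : q a b c d * q a (-b) (-c) (-d) = (a ^ 2 + b ^ 2 + c ^ 2 + d ^ 2) • (1 : A) := by
    simp only [q, mul_add, add_mul, smul_mul_assoc, mul_smul_comm, mul_assoc, hi, hj, hij, hi',
      hj', hij', mul_neg, neg_mul, mul_one, one_mul, neg_neg]
    module
  rw [h, zero_smul] at this
  rcases mul_eq_zero.1 this with e | e
  · exact L1 _ _ _ _ e
  · simpa using L1 _ _ _ _ e

theorem key0 (hA : PA.{u}) {A : Type u} [DivisionRing A] [CharZero A] {l : ℕ} (hl : l.Prime) (h2 : l ≠ 2)
    (h5 : l ≠ 5) (η s i j : A) (hη : ∀ x, x * η = η * x) (hs : ∀ x, x * s = s * x) (e1 : η ^ l = 1) (e2 : η ≠ 1)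
    (e3 : s ^ 2 = 5) (hi : i * i = -1) (hj : j * j = -1) (hij : j * i = -(i * j)) : False := by
  haveI : CharZero (Subring.center A) := (Subring.center A).subtype.charZero
  letI : Algebra (Subring.center A) A :=
    RingHom.toAlgebra' (Subring.center A).subtype fun c x => (Subring.mem_center_iff.1 c.2 x).symm
  obtain ⟨a, b, c, d, h0, h1⟩ := hA l hl h2 h5 (Subring.center A) ⟨η, Subring.mem_center_iff.2 hη⟩
    ⟨s, Subring.mem_center_iff.2 hs⟩ (Subtype.ext e1) (fun e => e2 (congrArg Subtype.val e)) (Subtype.ext e3)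
  obtain ⟨rfl, rfl, rfl, rfl⟩ := quat i j hi hj hij a b c d h1
  simp at h0

theorem key (hA : PA.{u}) {D : Type u} [DivisionRing D] [CharZero D] {l : ℕ} (hl : l.Prime) (h2 : l ≠ 2)
    (h5 : l ≠ 5) (η s i j : D) (c1 : η * s = s * η) (c2 : η * i = i * η) (c3 : η * j = j * η) (c4 : s * i = i * s)
    (c5 : s * j = j * s) (e1 : η ^ l = 1) (e2 : η ≠ 1)
    (e3 : s ^ 2 = 5) (hi : i * i = -1) (hj : j * j = -1) (hij : j * i = -(i * j)) : False := by
  let A : Subfield D := { Subring.centralizer ({η, s} : Set D) with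
    inv_mem' := fun x hx => Set.inv_mem_centralizer₀ hx }
  have mem : ∀ x, η * x = x * η → s * x = x * s → x ∈ A := fun x h1 h2 => by
    rintro _ (rfl | rfl)
    exacts [h1, h2]
  haveI : CharZero A := A.subtype.charZero
  exact key0 hA hl h2 h5 (A := A) ⟨η, mem _ rfl c1.symm⟩ ⟨s, mem _ c1 rfl⟩ ⟨i, mem _ c2 c4⟩ ⟨j, mem _ c3 c5⟩
    (fun x => Subtype.ext (x.2 η (by simp)).symm) (fun x => Subtype.ext (x.2 s (by simp)).symm)
    (Subtype.ext e1) (fun e => e2 (congrArg Subtype.val e)) (Subtype.ext e3) (Subtype.ext hi) (Subtype.ext hj)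
    (Subtype.ext hij)

def sJ : SL25 := ⟨!![2, 0; 0, 3], by decide⟩

theorem d1 : ∀ y : SL25, y ^ 5 = 1 → y ≠ 1 → ∃ g : SL25, y * g = g * (sA * sB) ∨ y * g = g * (sA * sB) ^ 2 := by
  decide +kernel

theorem d2 : ∀ c g : Equiv.Perm (Fin 5), c ^ 5 = 1 → c ≠ 1 → g * c = c * g → Equiv.Perm.sign g = 1 := by
  decide +kernel

section
variable {D : Type u} [DivisionRing D] [CharZero D] (ρ : SL25 →* D) (hρ : Function.Injective ρ)
include hρ

theorem r1 : ρ (-1) = -1 := by
  have : ρ (-1) * ρ (-1) = 1 := by rw [← map_mul]; simp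
  rcases mul_self_eq_one_iff.1 this with e | e
  · exact absurd (hρ (e.trans (map_one ρ).symm)) SL25_neg_one_ne
  · exact e

theorem geo {y : SL25} (h1 : y ≠ 1) {n : ℕ} (hn : y ^ n = 1) : ∑ i ∈ Finset.range n, ρ y ^ i = 0 := by
  have := mul_geom_sum (ρ y) n
  rw [← map_pow, hn, map_one, sub_self] at this
  exact (mul_eq_zero.1 this).resolve_left fun e => h1 (hρ ((sub_eq_zero.1 e).trans (map_one ρ).symm))

theorem tcomm (g : SL25) : ρ g * (ρ (sA * sB) + ρ (sA * sB) ^ 4) = (ρ (sA * sB) + ρ (sA * sB) ^ 4) * ρ g := by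
  have ha : ρ sA * ρ sA = -1 := by rw [← map_mul, ← sq, sA_sq, r1 ρ hρ]
  have hb : ρ sB * ρ sB = -1 - ρ sB := by
    have := geo ρ hρ (y := sB) (by decide +kernel) sB_cube
    simp only [Finset.sum_range_succ, Finset.range_zero, Finset.sum_empty, pow_zero, zero_add, pow_one, sq] at this
    rw [eq_sub_iff_add_eq, eq_neg_iff_add_eq_zero, ← this]; abel
  have h4 : ρ (sA * sB) ^ 4 = ρ sA + ρ sB * ρ sA := by
    rw [← map_pow, show (sA * sB) ^ 4 = sB * sB * (-1) * sA by decide +kernel, map_mul, map_mul, map_mul, hb,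
      r1 ρ hρ]
    noncomm_ring
  have ha' : ∀ x, ρ sA * (ρ sA * x) = -x := fun x => by rw [← mul_assoc, ha]; simp
  have hb' : ∀ x, ρ sB * (ρ sB * x) = -x - ρ sB * x := fun x => by rw [← mul_assoc, hb]; noncomm_ring
  rw [h4, map_mul]
  have hg : g ∈ Subgroup.closure ({sA, sB} : Set SL25) := closure_SL25 ▸ mem_top g
  induction hg using Subgroup.closure_induction with
  | mem y hy =>
    rcases hy with rfl | rfl <;>
      simp only [mul_add, add_mul, mul_assoc, ha, hb, ha', hb', mul_sub, mul_neg, mul_one] <;> abel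
  | one => simp
  | mul x y _ _ hx hy => rw [map_mul, mul_assoc, hy, ← mul_assoc, hx, mul_assoc]
  | inv x _ hx =>
    have e1 : ρ x⁻¹ * ρ x = 1 := by rw [← map_mul, inv_mul_cancel, map_one]
    rw [eq_inv_of_mul_eq_one_left e1]
    exact Commute.inv_left₀ hx

theorem t5 : ρ (sA * sB) ^ 2 + (ρ (sA * sB) ^ 2) ^ 4 = -1 - (ρ (sA * sB) + ρ (sA * sB) ^ 4) ∧
    (2 * (ρ (sA * sB) + ρ (sA * sB) ^ 4) + 1) ^ 2 = 5 := by
  have h5 : ρ (sA * sB) ^ 5 = 1 := by rw [← map_pow, sAB_five, map_one]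
  have := geo ρ hρ (y := sA * sB) (by decide +kernel) sAB_five
  simp only [Finset.sum_range_succ, Finset.range_zero, Finset.sum_empty, pow_zero, zero_add, pow_one] at this
  generalize ρ (sA * sB) = x at h5 this
  have h8 : x ^ 8 = x ^ 3 := by rw [show 8 = 5 + 3 from rfl, pow_add, h5, one_mul]
  constructor
  · rw [← pow_mul, h8, eq_sub_iff_add_eq, eq_neg_iff_add_eq_zero, ← this]; abel
  · have e : (2 * (x + x ^ 4) + 1) ^ 2 = 4 * (x + x ^ 2 + x ^ 8 + x ^ 4) + 8 * x ^ 5 + 1 := by noncomm_ring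
    have e' : x + x ^ 2 + x ^ 3 + x ^ 4 = -1 := by rw [eq_neg_iff_add_eq_zero, ← this]; abel
    rw [e, h8, e', h5]; norm_num

end

theorem surj (hA : PA.{u}) {D : Type u} [DivisionRing D] [CharZero D] {G : Type*} [Group G] [Finite G]
    (φ : G →* D) (hφ : Function.Injective φ) (h : FC G) {f : SL25 →* G} (hf : Function.Injective f)
    [hn : f.range.Normal] : Function.Surjective f := by
  obtain ⟨θ, h1, h2⟩ := exists_hom_S5 hf (h.invol_comm (by rw [← map_mul]; simp))
  have hρ : Function.Injective (φ.comp f) := hφ.comp hf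
  have hm : φ (f (-1)) = -1 := r1 _ hρ
  obtain ⟨t1, t2⟩ := t5 _ hρ
  have tc := tcomm _ hρ
  simp only [MonoidHom.comp_apply] at t1 t2 tc
  set x := φ (f (sA * sB)) with hx
  have hC : ∀ c ∈ centralizer (f.range : Set G), c = 1 ∨ c = f (-1) := fun c hc => by
    have hp : IsPGroup 2 (zpowers c) := by
      rw [IsPGroup.iff_card]
      refine ⟨_, Nat.eq_prime_pow_of_unique_prime_dvd Nat.card_pos.ne' fun {l} hl hd => ?_⟩
      by_contra h2'
      obtain ⟨e, he, ho⟩ := H10.exists_mem_orderOf_eq _ hl hd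
      have he' : e ∈ centralizer (f.range : Set G) := zpowers_le.2 hc he
      by_cases h5 : l = 5
      · have h7 : e * e = 1 := by
          rcases h.cent_SL25 hf he' (by simp [ho, h5]) with e' | e'
          · simp [e']
          · rw [e', ← map_mul]; simp
        have := orderOf_dvd_of_pow_eq_one ((sq e).trans h7)
        rw [ho, h5] at this
        exact absurd this (by decide)
      have cm : ∀ g, φ e * φ (f g) = φ (f g) * φ e := fun g => by
        rw [← map_mul, ← map_mul, he' _ ⟨g, rfl⟩]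
      have cx : Commute (φ e) x := cm _
      have cs : ∀ g, (2 * (x + x ^ 4) + 1) * φ (f g) = φ (f g) * (2 * (x + x ^ 4) + 1) := fun g =>
        (((Commute.ofNat_right _ 2).mul_right (tc g)).add_right (Commute.one_right _)).symm
      refine key hA hl h2' h5 (φ e) (2 * (x + x ^ 4) + 1) (φ (f sA)) (φ (f sJ))
        (((Commute.ofNat_right _ 2).mul_right (cx.add_right (cx.pow_right 4))).add_right (Commute.one_right _))
        (cm _) (cm _) (cs _) (cs _) (by rw [← map_pow, ← ho, pow_orderOf_eq_one, map_one])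
        (fun e' => ?_) t2 ?_ ?_ ?_
      · have : e = 1 := hφ (e'.trans (map_one φ).symm)
        rw [this, orderOf_one] at ho
        exact hl.one_lt.ne ho
      · rw [← map_mul, ← map_mul, ← sq, sA_sq, hm]
      · rw [← map_mul, ← map_mul, show sJ * sJ = -1 by decide +kernel, hm]
      · rw [← map_mul, ← map_mul, show sJ * sA = (-1) * (sA * sJ) by decide +kernel, map_mul, map_mul, hm, map_mul,
          map_mul, neg_one_mul]
    obtain ⟨k, hk⟩ := hp ⟨c, mem_zpowers c⟩
    exact h.cent_two hf hc (congrArg Subtype.val hk)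
  have hs : ∀ a, Equiv.Perm.sign (θ (f a)) = 1 := fun a =>
    Equiv.Perm.mem_alternatingGroup.1 (h2 ▸ mem_map_of_mem θ (show f a ∈ f.range from ⟨a, rfl⟩))
  have hm1 : θ (f (-1)) = 1 := by
    rw [← MonoidHom.mem_ker, h1]
    rintro _ ⟨a, rfl⟩
    rw [← map_mul, ← map_mul]; simp
  intro g
  by_cases hg : Equiv.Perm.sign (θ g) = 1
  · have : g ∈ (alternatingGroup (Fin 5)).comap θ := Equiv.Perm.mem_alternatingGroup.2 hg
    rw [mem_sup_of_mem_alt h2, h1] at this
    have hle : centralizer (f.range : Set G) ≤ f.range := fun c hc => by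
      rcases hC c hc with rfl | rfl
      exacts [one_mem _, ⟨_, rfl⟩]
    exact sup_le le_rfl hle this
  exfalso
  have hg' : Equiv.Perm.sign (θ g) = -1 := (Int.units_eq_one_or _).resolve_left hg
  obtain ⟨_, ⟨a, rfl⟩, ha⟩ : Equiv.swap (0 : Fin 5) 1 * (θ g)⁻¹ ∈ f.range.map θ := by
    rw [h2, Equiv.Perm.mem_alternatingGroup, map_mul, map_inv, hg', Equiv.Perm.sign_swap (by decide)]; simp
  obtain ⟨w, hw⟩ : ∃ w, θ w = Equiv.swap (0 : Fin 5) 1 := ⟨f a * g, by rw [map_mul, ha]; simp⟩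
  have hsw : Equiv.Perm.sign (θ w) = -1 := by rw [hw, Equiv.Perm.sign_swap (by decide)]
  have hw2 : φ w * φ w = -1 := by
    have : w * w ∈ θ.ker := by rw [MonoidHom.mem_ker, map_mul, hw]; simp
    rcases hC _ (h1 ▸ this) with e | e
    · have e' : φ w * φ w = 1 := by rw [← map_mul, e, map_one]
      rcases mul_self_eq_one_iff.1 e' with e2 | e2
      · rw [hφ (e2.trans (map_one φ).symm), map_one] at hsw; simp at hsw
      · rw [hφ (e2.trans hm.symm), hm1] at hsw; simp at hsw
    · rw [← map_mul, e, hm]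
  obtain ⟨y, hy⟩ := hn.conj_mem _ (show f (sA * sB) ∈ f.range from ⟨_, rfl⟩) w
  have hy5 : y ^ 5 = 1 := hf (by rw [map_pow, hy, conj_pow, ← map_pow, sAB_five]; simp)
  have hy1 : y ≠ 1 := fun e => by
    rw [e, map_one, eq_comm, conj_eq_one_iff] at hy
    exact absurd (hf (hy.trans (map_one f).symm)) (by decide +kernel)
  have hyw : f y * w = w * f (sA * sB) := by rw [hy]; group
  obtain ⟨b, hb | hb⟩ := d1 y hy5 hy1
  · have e1 : ((f b)⁻¹ * w) * f (sA * sB) = f (sA * sB) * ((f b)⁻¹ * w) := by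
      have := congrArg f hb
      rw [map_mul, map_mul f b] at this
      rw [mul_assoc, ← hyw, ← mul_assoc, ← mul_assoc, eq_mul_inv_of_mul_eq this]; group
    have e2 := d2 (θ (f (sA * sB))) (θ ((f b)⁻¹ * w)) (by rw [← map_pow, ← map_pow, sAB_five]; simp)
      (fun e => by
        rcases hC _ (h1 ▸ (MonoidHom.mem_ker.2 e)) with e' | e'
        · exact absurd (hf (e'.trans (map_one f).symm)) (by decide +kernel)
        · exact absurd (hf e') (by decide +kernel))
      (by rw [← map_mul, e1, map_mul])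
    rw [map_mul, map_mul, map_inv, map_inv, hs, hsw] at e2
    simp at e2
  · have e1 : φ (f y) * φ w = φ w * x := by rw [← map_mul, hyw, map_mul]
    have e2 : φ (f y) * φ (f b) = φ (f b) * x ^ 2 := by
      rw [← map_mul, ← map_mul, hb, map_mul, map_mul, map_pow, map_pow]
    have e3 : (φ (f y) + φ (f y) ^ 4) * φ w = φ w * (x + x ^ 4) := by
      rw [add_mul, mul_add, e1, (SemiconjBy.pow_right (a := φ w) (x := x) (y := φ (f y)) e1.symm 4).eq]
    have e4 : (φ (f y) + φ (f y) ^ 4) * φ (f b) = φ (f b) * (x ^ 2 + (x ^ 2) ^ 4) := by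
      rw [add_mul, mul_add, e2, (SemiconjBy.pow_right (a := φ (f b)) (x := x ^ 2) (y := φ (f y)) e2.symm 4).eq]
    have hb0 : φ (f b) ≠ 0 := fun e => by
      have : φ (f b) * φ (f b⁻¹) = 1 := by rw [← map_mul, ← map_mul, mul_inv_cancel, map_one, map_one]
      rw [e, zero_mul] at this
      exact zero_ne_one this
    rw [t1, mul_sub, tc b, mul_neg, mul_one, ← neg_one_mul (φ (f b)), ← sub_mul] at e4
    rw [mul_right_cancel₀ hb0 e4] at e3
    generalize x + x ^ 4 = t at e3 t2
    generalize φ w = W at e3 hw2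
    have hs2 : (2 * t + 1) * (2 * t + 1) = 5 := by rw [← sq, t2]
    have e5 : W * (2 * t + 1) = -((2 * t + 1) * W) := by
      have : W * (2 * t + 1) = 2 * (W * t) + W := by noncomm_ring
      rw [this, ← e3]; noncomm_ring
    generalize 2 * t + 1 = s at hs2 e5
    have e6 : (s + 2 * W) * (s + 2 * W) = 1 := by
      have : (s + 2 * W) * (s + 2 * W) = s * s + 2 * (W * s + s * W) + 4 * (W * W) := by noncomm_ring
      rw [this, e5, hs2, hw2]; norm_num
    have e7 : s * W = W * s := by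
      rcases mul_self_eq_one_iff.1 e6 with e | e
      · rw [eq_sub_of_add_eq e]; noncomm_ring
      · rw [eq_sub_of_add_eq e]; noncomm_ring
    rw [← e7, eq_neg_iff_add_eq_zero, ← two_mul] at e5
    rcases mul_eq_zero.1 ((mul_eq_zero.1 e5).resolve_left two_ne_zero) with e | e
    · rw [e] at hs2; norm_num at hs2
    · rw [e] at hw2; simp at hw2

theorem pA : PA.{u} := fun l hl h2 h5 K _ _ η s e1 e2 e3 => by
  obtain ⟨p, hp, h3, hsq, m, hm⟩ := H16.AmD.pD l hl h2 h5
  obtain ⟨u, v, c, d, h0, huv⟩ := H14.AmN.pN p hp hsq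
  obtain ⟨A, B, hAB⟩ := H28.AmG.pG p hp h3 η
  obtain ⟨k, hk⟩ := hl.odd_of_ne_two h2
  have f1 : η ^ p * η = 1 := by rw [← pow_succ, hm, pow_mul, e1, one_pow]
  have f2 : (η ^ k) ^ 2 * η = 1 := by rw [← pow_mul, ← pow_succ, mul_comm, ← hk, e1]
  have f3 := mul_geom_sum η p
  generalize ∑ i ∈ Finset.range p, η ^ i = S at hAB f3
  generalize η ^ k = θ at f2
  have f4 : η * S = -1 := mul_left_cancel₀ (sub_ne_zero.2 e2) (by linear_combination η * f3 + f1)
  have f5 : S = -θ ^ 2 := by linear_combination (-S) * f2 + θ ^ 2 * f4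
  have hθ : θ ≠ 0 := by rintro rfl; simp at f2
  have huv' : (p : K) * ((c : K) ^ 2 + (d : K) ^ 2) = (u : K) ^ 2 + 5 * (v : K) ^ 2 := by exact_mod_cast huv
  have h0' : (c : K) ^ 2 + (d : K) ^ 2 ≠ 0 := by exact_mod_cast h0
  have hp' : (p : K) ≠ 0 := by exact_mod_cast hp.ne_zero
  rw [f5] at hAB
  by_cases hz : (2 * θ) ^ 2 + A ^ 2 = 0
  · exact ⟨2 * θ, A, 0, 0, Or.inl (mul_ne_zero two_ne_zero hθ), by linear_combination hz⟩
  have g1 : (u * A - v * s * (2 * θ)) ^ 2 + (u * (2 * θ) + v * s * A) ^ 2 =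
      (p : K) * ((c : K) ^ 2 + (d : K) ^ 2) * ((2 * θ) ^ 2 + A ^ 2) := by
    rw [huv', ← e3]; ring
  refine ⟨u * A - v * s * (2 * θ), u * (2 * θ) + v * s * A, c * B, d * B, ?_, ?_⟩
  · by_contra hn
    simp only [not_or, not_not] at hn
    rw [hn.1, hn.2.1] at g1
    exact mul_ne_zero (mul_ne_zero hp' h0') hz (by rw [← g1]; simp)
  · rw [g1]; linear_combination (-((c : K) ^ 2 + (d : K) ^ 2)) * hAB

theorem main {D : Type u} [DivisionRing D] (H : Subgroup Dˣ) [Finite H] (hH : ¬ Group.IsSolvable H) :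
    Nonempty (H ≃* SL25) := by
  obtain ⟨p, hp⟩ := CharP.exists D
  rcases CharP.char_is_prime_or_zero D p with h | rfl
  · have : Fact p.Prime := ⟨h⟩
    exact absurd (Group.isSolvable_of_comm (H16.AmD.pP H p)) hH
  have : CharZero D := CharP.charP_to_charZero D
  have : Nontrivial H := by
    by_contra h
    rw [not_nontrivial_iff_subsingleton] at h
    exact hH (Group.isSolvable_of_comm fun a b => Subsingleton.elim _ _)
  let φ : H →* D := (Units.coeHom D).comp H.subtype
  have hφ : Function.Injective φ := Units.val_injective.comp H.subtype_injective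
  have h : FC H := IsFC.fc (isFC_of_charZero φ fun g hg => by
    have := mul_geom_sum (φ g) (orderOf g)
    rw [← map_pow, pow_orderOf_eq_one, map_one, sub_self] at this
    refine (mul_eq_zero.1 this).resolve_left fun e => ?_
    rw [hφ ((sub_eq_zero.1 e).trans (map_one φ).symm), orderOf_one] at hg
    exact Nat.not_prime_one hg)
  obtain ⟨f, hf, hn⟩ := h.exists_SL25 hH
  exact ⟨(MulEquiv.ofBijective f ⟨hf, surj pA φ hφ h hf⟩).symm⟩

end H22.Am
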